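import Cfsg.Agent.H50.Ux.Stmts
import Cfsg.Agent.H447.Bs.OMinus
import Cfsg.Agent.H59.Bs.ODec
import Cfsg.Agent.H141.SpinTwo

/-!
# UX (S5716), Ya3 (helper59): blocks of minus type of even dimension in a quadratic space, from `Ya0`
-/

set_option autoImplicit false
set_option linter.unusedSectionVars false

namespace Cfsg.Agent.H59.Ux

open Cfsg.Agent.H847.Bs Cfsg.Agent.H59.Bs Cfsg.Agent.H39.Bs Cfsg.Agent.H447.Bs Module QuadraticMap
open Cfsg.Agent.LieClassical.OrthCore Cfsg.Agent.LieClassical.OrthTrans Cfsg.Agent.H182.Sign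
open Cfsg.Agent.H141.Ux (Pp)
open Cfsg.Agent.H50.Ux
open scoped IntermediateField

/-! ### arithmetic -/

theorem ringChar_eq {F : Type*} [Field F] [Finite F] {p f : ℕ} (hp : p.Prime) (hF : Nat.card F = p ^ f) :
    ringChar F = p := by
  have h0 : ((Nat.card F : ℕ) : F) = 0 := by
    rw [← nsmul_one]
    have : addOrderOf (1 : F) ∣ Nat.card F := addOrderOf_dvd_natCard _
    exact addOrderOf_dvd_iff_nsmul_eq_zero.1 this
  rw [hF, Nat.cast_pow] at h0
  have h1 : (p : F) = 0 := eq_zero_of_pow_eq_zero h0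
  have h2 : ringChar F ∣ p := ringChar.dvd h1
  have h3 : ringChar F ≠ 1 := by
    intro h
    have h4 : ((1 : ℕ) : F) = 0 := by
      have := (ringChar.spec F 1).2 (by rw [h])
      exact this
    rw [Nat.cast_one] at h4
    exact one_ne_zero h4
  exact ((Nat.dvd_prime hp).1 h2).resolve_left h3

/-- a prime `r` with `ord_r(p) = m` divides `p ^ i - 1` only if `m ∣ i` -/
theorem dvd_of_dvd_pow_sub {p r m i : ℕ} (hp : 0 < p) (h : orderOf ((p : ℕ) : ZMod r) = m) (hr : r ∣ p ^ i - 1) : m ∣ i := by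
  rw [← h]
  apply orderOf_dvd_of_pow_eq_one
  have h1 : 1 ≤ p ^ i := Nat.one_le_pow _ _ hp
  have h2 : ((p ^ i - 1 : ℕ) : ZMod r) = 0 := (ZMod.natCast_eq_zero_iff _ _).2 hr
  rw [Nat.cast_sub h1, Nat.cast_pow, Nat.cast_one, sub_eq_zero] at h2
  exact h2

section Field

variable {F K L : Type} [Field F] [Field K] [Field L] [Finite L] [Algebra F K] [Algebra K L] [Algebra F L]
  [IsScalarTower F K L] (h2 : finrank K L = 2)

/-- the elements with a primitive part generate -/
theorem gen_of_prim {p f e k : ℕ} (hp : p.Prime) (hf : 1 ≤ f) (he : finrank F L = e) (hF : Nat.card F = p ^ f)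
    {t : Lˣ} (hk1 : 1 < k) (hk : ∀ r : ℕ, r.Prime → r ∣ k → orderOf ((p : ℕ) : ZMod r) = e * f) (hkt : k ∣ orderOf t) :
    F⟮(t : L)⟯ = ⊤ := by
  have hfF : Finite F := Finite.of_injective _ (algebraMap F L).injective
  have hfd : FiniteDimensional F L := Module.Finite.of_finite
  have h1 : (t : L) ^ Nat.card F⟮(t : L)⟯ = t := pow_card_of_mem (IntermediateField.mem_adjoin_simple_self F (t : L))
  set i := finrank F F⟮(t : L)⟯ with hi
  have hc : Nat.card F⟮(t : L)⟯ = p ^ (f * i) := by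
    rw [Module.natCard_eq_pow_finrank (K := F), hF, ← pow_mul]
  have hpos : 0 < p ^ (f * i) := pow_pos hp.pos _
  have h3 : t ^ (p ^ (f * i) - 1) = 1 := by
    apply Units.ext
    rw [Units.val_pow_eq_pow_val, Units.val_one]
    apply mul_right_cancel₀ (Units.ne_zero t)
    rw [one_mul, ← pow_succ, Nat.sub_add_cancel hpos, ← hc]
    exact h1
  have h4 : k ∣ p ^ (f * i) - 1 := hkt.trans (orderOf_dvd_of_pow_eq_one h3)
  obtain ⟨r, hr, hrk⟩ := Nat.exists_prime_and_dvd (show k ≠ 1 by omega)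
  have h5 := dvd_of_dvd_pow_sub hp.pos (hk r hr hrk) (hrk.trans h4)
  have hi0 : 0 < i := Module.finrank_pos
  have h6 : e * f ≤ f * i := Nat.le_of_dvd (Nat.mul_pos hf hi0) h5
  have h7 : e ≤ i := by
    rw [mul_comm e f] at h6
    exact Nat.le_of_mul_le_mul_left h6 hf
  apply IntermediateField.eq_of_le_of_finrank_le le_top
  rw [IntermediateField.finrank_top', he]
  exact h7

theorem mulE_pow (t : Lˣ) (n : ℕ) : (mulE F t) ^ n = mulE F (t ^ n) := by
  induction n with
  | zero =>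
    rw [pow_zero, pow_zero]
    refine LinearEquiv.ext fun x => ?_
    rw [mulE_apply, Units.val_one, one_mul]
    rfl
  | succ n ih => rw [pow_succ, pow_succ, ih, mulE_mul]

theorem orderOf_mulE (t : Lˣ) : orderOf (mulE F t) = orderOf t := by
  rw [orderOf_eq_orderOf_iff]
  intro n
  rw [mulE_pow]
  constructor
  · intro h
    apply mulE_injective (F := F)
    rw [h]
    refine LinearEquiv.ext fun x => ?_
    rw [mulE_apply, Units.val_one, one_mul]
    rfl
  · intro h
    rw [h]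
    refine LinearEquiv.ext fun x => ?_
    rw [mulE_apply, Units.val_one, one_mul]
    rfl

/-- the count on `L` -/
theorem ya_L (h0 : Ya0) {p f j : ℕ} (hp : p.Prime) (hF : Nat.card F = p ^ f) (hj : finrank F L = 2 * j) (hj0 : 2 ≤ j)
    (hK : Nat.card K = Nat.card F ^ j)
    (hbig : 64 * (2 * j * f) * (2 * (2 * j) + 2) ^ 2 * (2 * j) ≤ p ^ (2 * j * f).totient) :
    Nat.card (frmQ (traceForm F (qN h2))).Iso ≤
      4 * (2 * j) * Nat.card {m : L ≃ₗ[F] L // m ∈ (frmQ (traceForm F (qN h2))).Iso ∧ m ∈ PI F L (2 * j)} := by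
  classical
  have hfF : Finite F := Finite.of_injective _ (algebraMap F L).injective
  have hfd : FiniteDimensional F L := Module.Finite.of_finite
  have hfe : Finite (L ≃ₗ[F] L) := Finite.of_injective _ DFunLike.coe_injective
  have hf : 1 ≤ f := by
    rw [Nat.one_le_iff_ne_zero]
    rintro rfl
    rw [pow_zero] at hF
    have := Finite.one_lt_card (α := F)
    omega
  set q := p ^ f with hq
  have hq2 : 2 ≤ q := by rw [← hF]; exact Finite.one_lt_card
  set G := (frmQ (traceForm F (qN h2))).Iso with hG'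
  set B : Set (L ≃ₗ[F] L) := {m | m ∈ G ∧ m ∈ PI F L (2 * j)} with hB
  have hBc : Nat.card {m : L ≃ₗ[F] L // m ∈ G ∧ m ∈ PI F L (2 * j)} = Nat.card B := rfl
  rw [hBc]
  let T : Set Lˣ := {t | t ^ (q ^ j + 1) = 1}
  let S : Set Lˣ := {t | t ^ (q ^ j + 1) = 1 ∧ ∃ k, 2 * (2 * j) + 1 < k ∧ k ∣ q ^ (2 * j) - 1 ∧
    (∀ r : ℕ, r.Prime → r ∣ k → orderOf ((p : ℕ) : ZMod r) = 2 * j * f) ∧ k ∣ orderOf t}
  let E : Set (L ≃ₗ[F] L) := (mulE F) '' S
  have hES : Nat.card E = Nat.card S := Nat.card_image_of_injective mulE_injective S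
  have hTK : ∀ {t : Lˣ}, t ^ (q ^ j + 1) = 1 → t ^ (Nat.card K + 1) = 1 := fun h => by rwa [hK, hF]
  have hL : Nat.card L = q ^ (2 * j) := by
    rw [Module.natCard_eq_pow_finrank (K := F), hj, hF]
  have hgen : ∀ t ∈ S, F⟮(t : L)⟯ = ⊤ := by
    rintro t ⟨_, k, hk1, _, hk3, hk4⟩
    exact gen_of_prim hp hf hj hF (by omega) hk3 hk4
  have hchar := ringChar_eq hp hF
  have hPI : ∀ t ∈ S, mulE F t ∈ PI F L (2 * j) := by
    rintro t ht
    refine ⟨irr_mulE (hgen t ht), ?_⟩
    obtain ⟨_, k, hk1, hk2, hk3, hk4⟩ := ht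
    refine ⟨k, ⟨hk1, by rw [hF]; exact hk2, ?_⟩, by rw [orderOf_mulE]; exact hk4⟩
    intro r hr hrk f' hf'
    rw [hchar] at hf' ⊢
    have : f = f' := Nat.pow_right_injective hp.two_le (hF.symm.trans hf')
    rw [← this]
    exact hk3 r hr hrk
  have key := card_pairs G E B (2 * j * Nat.card T) (by
      rintro _ ⟨t, ht, rfl⟩
      have h1 := card_conj_le G T (fun c hc => by
        have h3 := pow_eq_of_mulE_mem h2 (Cfsg.Agent.H447.Bs.mem_Iso_frmQ.1 hc)
        rw [hK, hF] at h3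
        exact h3) (hgen t ht) E (by rintro _ ⟨u, _, rfl⟩; exact ⟨u, rfl⟩)
      rwa [hj] at h1) (by
      rintro g hg _ ⟨t, ht, rfl⟩
      have hO := mulE_mem_O (F := F) h2 (hTK ht.1)
      refine ⟨G.mul_mem (G.mul_mem hg (Cfsg.Agent.H447.Bs.mem_Iso_frmQ.2 hO)) (G.inv_mem hg), ?_, ?_⟩
      · have h3 := Irr_cj (e := g) (irr_mulE (hgen t ht))
        rw [Submodule.map_top, LinearMap.range_eq_top.2 g.surjective] at h3
        exact h3
      · obtain ⟨k, hk1, hk2⟩ := (hPI t ht).2
        refine ⟨k, hk1, ?_⟩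
        have h4 : orderOf (g * mulE F t * g⁻¹) = orderOf (mulE F t) := by
          have h5 : g * mulE F t * g⁻¹ = MulAut.conj g (mulE F t) := rfl
          rw [h5, MulEquiv.orderOf_eq]
        rw [h4]
        exact hk2)
  rw [hES] at key
  -- the torus
  have hT : Nat.card T ≤ q ^ j + 1 := card_pow_le _ (by omega)
  have hQ1 : 1 ≤ q ^ j := Nat.one_le_pow _ _ (by omega)
  have hfac : q ^ (2 * j) - 1 = (q ^ j + 1) * (q ^ j - 1) := by
    rw [← Nat.sq_sub_sq, mul_comm 2 j, pow_mul, one_pow]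
  have h1 := h0 L p f (2 * j) (q ^ j + 1) hp hf (by omega) hL (by rw [hq] at *; exact hbig)
    (by rw [← hq, hfac]; exact Dvd.intro _ rfl) (by
      intro r hr hr1 hr2
      rw [← hq, hfac, Nat.mul_div_cancel_left _ (by omega)] at hr2
      rw [hq, ← pow_mul] at hr2
      have h5 := dvd_of_dvd_pow_sub hp.pos hr1 hr2
      have h6 := Nat.le_of_dvd (Nat.mul_pos hf (by omega)) h5
      have h7 : 2 * j * f = 2 * (f * j) := by ring
      have h8 : 0 < f * j := Nat.mul_pos hf (by omega)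
      omega)
  have h3 : 3 * (q ^ j + 1) ≤ 4 * Nat.card S := h1
  have hc0 : 0 < q ^ j + 1 := by omega
  -- `|G| * 3 c ≤ 4 |G| |S| ≤ 4 |B| 2 j c`
  have h4 : (Nat.card G * 3) * (q ^ j + 1) ≤ (4 * (2 * j) * Nat.card B) * (q ^ j + 1) := by
    calc (Nat.card G * 3) * (q ^ j + 1) = Nat.card G * (3 * (q ^ j + 1)) := by ring
      _ ≤ Nat.card G * (4 * Nat.card S) := Nat.mul_le_mul_left _ h3
      _ = 4 * (Nat.card G * Nat.card S) := by ring
      _ ≤ 4 * (Nat.card B * (2 * j * Nat.card T)) := Nat.mul_le_mul_left _ key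
      _ ≤ 4 * (Nat.card B * (2 * j * (q ^ j + 1))) :=
        Nat.mul_le_mul_left _ (Nat.mul_le_mul_left _ (Nat.mul_le_mul_left _ hT))
      _ = _ := by ring
  have h5 := Nat.le_of_mul_le_mul_right h4 hc0
  omega

end Field

/-! ### transport -/

section Transport

variable {F V V' : Type*} [Field F] [AddCommGroup V] [Module F V] [AddCommGroup V'] [Module F V']

theorem PI_cj {e : V ≃ₗ[F] V'} {d : ℕ} {x : V ≃ₗ[F] V} (hx : x ∈ PI F V d) : cj e x ∈ PI F V' d := by
  obtain ⟨h1, k, hk1, hk2⟩ := hx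
  refine ⟨?_, k, hk1, ?_⟩
  · have h3 := Irr_cj (e := e) h1
    rwa [Submodule.map_top, LinearMap.range_eq_top.2 e.surjective] at h3
  · have h4 : orderOf (cj e x) = orderOf x := by
      rw [orderOf_eq_orderOf_iff]
      intro n
      have h5 : ∀ n : ℕ, (cj e x) ^ n = cj e (x ^ n) := by
        intro n
        induction n with
        | zero => rw [pow_zero, pow_zero, Cfsg.Agent.H447.Bs.cj_one]
        | succ n ih => rw [pow_succ, pow_succ, ih, Cfsg.Agent.H447.Bs.cj_mul]
      rw [h5]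
      constructor
      · intro h
        apply cj_injective e
        rw [h, Cfsg.Agent.H447.Bs.cj_one]
      · intro h
        rw [h, Cfsg.Agent.H447.Bs.cj_one]
    rw [h4]
    exact hk2

end Transport

/-- a nondegenerate space of minus type -/
theorem ya_minus (h0 : Ya0) {F V : Type} [Field F] [Finite F] [AddCommGroup V] [Module F V] [FiniteDimensional F V]
    {Q : QuadraticForm F V} (hQ : Nondeg Q) (hmin : ¬ PlusT Q) {j : ℕ} (hj : 2 ≤ j) (hd : finrank F V = 2 * j)
    {p f : ℕ} (hp : p.Prime) (hF : Nat.card F = p ^ f)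
    (hbig : 64 * (2 * j * f) * (2 * (2 * j) + 2) ^ 2 * (2 * j) ≤ p ^ (2 * j * f).totient) :
    Nat.card (frmQ Q).Iso ≤ 4 * (2 * j) * Nat.card {m : V ≃ₗ[F] V // m ∈ (frmQ Q).Iso ∧ m ∈ PI F V (2 * j)} := by
  have hpp : Fact p.Prime := ⟨hp⟩
  have hnz : NeZero j := ⟨by omega⟩
  have hcF : CharP F p := by
    rw [← ringChar_eq hp hF]
    exact ringChar.charP F
  let K := FiniteField.Extension F p j
  have hcK : CharP K p := charP_of_injective_algebraMap (algebraMap F K).injective p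
  let L := FiniteField.Extension K p 2
  let _ : Algebra F L := ((algebraMap K L).comp (algebraMap F K)).toAlgebra
  have htower : IsScalarTower F K L := IsScalarTower.of_algebraMap_eq' rfl
  have hKf : finrank F K = j := FiniteField.finrank_extension F p j
  have h2 : finrank K L = 2 := FiniteField.finrank_extension K p 2
  have hKc : Nat.card K = Nat.card F ^ j := FiniteField.natCard_extension F p j
  have hfL : FiniteDimensional F L := Module.Finite.of_finite
  have hfK : FiniteDimensional F K := Module.Finite.of_finite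
  have hLf : finrank F L = 2 * j := by rw [← Module.finrank_mul_finrank F K L, hKf, h2, mul_comm]
  have hsg : Sg (traceForm F (qN h2)) (finrank F K * 1) (-1) := (sg_qN h2).res
  have hV : Finite V := Module.finite_of_finite F
  obtain ⟨e, he⟩ := Cfsg.Agent.H932.exists_isometry hQ hsg.nondeg ⟨j, by rw [hd, two_mul]⟩ (hd.trans hLf.symm)
    (iff_of_false (fun h => hmin (Cfsg.Agent.H447.Bs.pl_iff.1 h)) (not_pl_of_sg hsg))
  have he' : ∀ v, Q (e.symm v) = traceForm F (qN h2) v := fun v => by rw [← he, e.apply_symm_apply]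
  have h1 := ya_L (F := F) (K := K) (L := L) h2 h0 hp hF hLf hj hKc hbig
  have h3 : Nat.card (frmQ Q).Iso ≤ Nat.card (frmQ (traceForm F (qN h2))).Iso :=
    card_Iso_le (e := e) (polar_e he) he
  have hfe : Finite (V ≃ₗ[F] V) := Finite.of_injective _ DFunLike.coe_injective
  have h4 : Nat.card {m : L ≃ₗ[F] L // m ∈ (frmQ (traceForm F (qN h2))).Iso ∧ m ∈ PI F L (2 * j)} ≤
      Nat.card {m : V ≃ₗ[F] V // m ∈ (frmQ Q).Iso ∧ m ∈ PI F V (2 * j)} :=
    Nat.card_le_card_of_injective (fun x => ⟨cj e.symm x.1, Iso_cj (polar_e he') he' x.2.1, PI_cj x.2.2⟩)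
      fun _ _ h => Subtype.ext (cj_injective e.symm (congrArg Subtype.val h))
  exact h3.trans (h1.trans (Nat.mul_le_mul_left _ h4))

/-- the block in even dimension -/
theorem exists_block {F V : Type} [Field F] [Finite F] [AddCommGroup V] [Module F V] [FiniteDimensional F V]
    {Q : QuadraticForm F V} (hQ : Nondeg Q) {j : ℕ} (hj : 1 ≤ j) (hd : 2 * j + 1 < finrank F V) :
    ∃ D : Submodule F V, (frmQ Q).NdOn D ∧ finrank F D = 2 * j ∧ ¬ PlusT (Q.comp D.subtype) := by
  have hnd : ∀ {W : Type} [AddCommGroup W] [Module F W] [FiniteDimensional F W] {R : QuadraticForm F W}, Nondeg R →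
      ∀ {D U : Submodule F W}, (frmQ R).Dec D U → (frmQ R).NdOn D := by
    intro W _ _ _ R hR D U h x hx hxD
    apply hR x
    intro y
    obtain ⟨d, hd, u, hu, rfl⟩ := Submodule.mem_sup.1 (show y ∈ D ⊔ U by rw [h.compl.sup_eq_top]; trivial)
    have h1 := hxD d hd
    have h2 := h.orth x hx u hu
    have h3 := (frmQ R).add_right x d u
    rw [h1, h2, add_zero] at h3
    exact h3
  rcases Nat.even_or_odd (finrank F V) with ⟨N, hN⟩ | ⟨N, hN⟩
  · obtain ⟨D, U, h1, h2, h3, _⟩ := exists_dec_minus hQ (N := N) (m := j) (by omega) hj (by omega)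
    exact ⟨D, hnd hQ h1, h2, h3⟩
  · have h2 : (2 : F) ≠ 0 := by
      intro h2
      obtain ⟨m, hm⟩ := Cfsg.Agent.H141.SpinFacts.even_finrank h2 hQ
      omega
    obtain ⟨v, hv⟩ : ∃ v, Q v ≠ 0 := by
      by_contra hcon
      push Not at hcon
      have hpos : 0 < finrank F V := by omega
      obtain ⟨w, hw⟩ := (Module.finrank_pos_iff_exists_ne_zero (R := F) (M := V)).1 hpos
      apply hw
      apply hQ w
      intro y
      rw [polar, hcon, hcon, hcon]
      simp
    have hvv : polar Q v v ≠ 0 := by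
      rw [polar_self, nsmul_eq_mul, Nat.cast_ofNat]
      exact mul_ne_zero h2 hv
    have hv0 : v ≠ 0 := by
      rintro rfl
      exact hv (by rw [QuadraticMap.map_zero])
    have hS : (frmQ Q).NdOn (Submodule.span F {v}) := by
      intro x hx hxy
      obtain ⟨a, rfl⟩ := Submodule.mem_span_singleton.1 hx
      have h3 : polar Q (a • v) v = 0 := hxy v (Submodule.mem_span_singleton_self v)
      rw [polar_smul_left, smul_eq_mul] at h3
      rcases mul_eq_zero.1 h3 with h4 | h4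
      · rw [h4, zero_smul]
      · exact absurd h4 hvv
    have hdec := Cfsg.Agent.H440.Bs.dec_perp (frmQ Q) (frmQ_nd.2 hQ) hS
    obtain ⟨W, hW⟩ : ∃ W, W = Cfsg.Agent.H440.Bs.perp (frmQ Q) (Submodule.span F {v}) := ⟨_, rfl⟩
    rw [← hW] at hdec
    have hsum := Submodule.finrank_add_eq_of_isCompl hdec.compl
    rw [finrank_span_singleton hv0] at hsum
    have hWn : Nondeg (Q.comp W.subtype) := Cfsg.Agent.H440.Bs.Dec.nd' hdec (frmQ_nd.2 hQ)
    obtain ⟨D', U, h1, h3, h4, _⟩ := exists_dec_minus hWn (N := N) (m := j) (by omega) hj (by omega)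
    have hD' := hnd hWn h1
    let e : D' ≃ₗ[F] D'.map W.subtype := Submodule.equivMapOfInjective _ W.subtype_injective D'
    have hev : ∀ x, ((e x : D'.map W.subtype) : V) = ((x : W) : V) := fun x => rfl
    refine ⟨D'.map W.subtype, ?_, ?_, ?_⟩
    · rintro _ ⟨x, hx, rfl⟩ hxy
      have h5 : x = 0 := hD' x hx fun y hy => hxy _ ⟨y, hy, rfl⟩
      rw [h5, map_zero]
    · rw [← e.finrank_eq]
      exact h3
    · intro h5
      apply h4
      exact (plusT_equiv (Q := (Q.comp W.subtype).comp D'.subtype) (Q' := Q.comp (D'.map W.subtype).subtype) e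
        (fun x => rfl)).1 h5

theorem ya3 (h0 : Ya0) : Ya3 := by
  intro F V _ _ _ _ _ Q p f e hnd he hp hF he20 hV hbig
  obtain ⟨j, hj⟩ := he
  have hj2 : e = 2 * j := by omega
  subst hj2
  obtain ⟨D, hD1, hD2, hD3⟩ := exists_block (frmQ_nd.1 hnd) (show 1 ≤ j by omega) (by omega)
  refine ⟨D, hD1, hD2, ?_⟩
  have hQD : Nondeg (Q.comp D.subtype) := by
    intro x hx
    apply Subtype.ext
    exact hD1 x x.2 fun y hy => hx ⟨y, hy⟩
  exact ya_minus h0 hQD hD3 (by omega) hD2 hp hF hbig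

end Cfsg.Agent.H59.Ux
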